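import Mathlib
import Cfsg.Agent.Lib.Helper55.OOG.Defs

/-!
# Project OOG (S2413): package [COMR]

The commutator formula `[ρ_{u,a}, ρ_{u',b}] = ρ_{u', -B(a,b) u}` (from [ALG], [CONJ]).
-/

set_option autoImplicit false
open scoped Matrix

namespace Cfsg.Agent.Lib.Helper59.OOG

open Cfsg.Agent.Lib.Helper55.OOG

universe u

theorem pkgComr_of (hAlg : PkgAlg.{u}) (hConj : PkgConj.{u}) : PkgComr.{u} := by
  intro m F _ u u' a b hu hu' huu' hua hub hu'a hu'b σ τ hσ hτ
  have hu'u : B u' u = 0 := by rw [B_comm]; exact huu'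
  have hbu : B b u = 0 := by rw [B_comm]; exact hub
  have h1 := hConj m F u' b σ τ hτ
  have e1 : mat σ *ᵥ u' = u' := by
    rw [hσ u', hu'u, hu'a]; simp
  have e2 : mat σ *ᵥ b = b - B b a • u := by
    rw [hσ b, hbu]; simp
  rw [e1, e2] at h1
  obtain ⟨-, hb, hc, -, -, -⟩ := hAlg m F u' hu'
  have h2 := hc b τ hu'b hτ
  have h3 : B u' (b - B b a • u) = 0 := by
    rw [B_sub_right, B_smul_right, hu'b, hu'u]; ring
  have h4 : B u' (-b) = 0 := by rw [B_neg_right, hu'b, neg_zero]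
  have h5 := hb _ _ _ _ h3 h4 h1 h2
  have h6 : b - B b a • u + -b = (-B a b) • u := by
    rw [B_comm a b]; module
  rw [h6] at h5
  exact h5

end Cfsg.Agent.Lib.Helper59.OOG
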