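import Mathlib
import Cfsg.Agent.Lib.Helper55.OOG.Defs

/-!
# Project OOG (S2413): package [LINE]

A subgroup containing the short and the long root elements contains every Siegel
transformation (from [ALG], [CONJ], [EPERP], [RED]).
-/

set_option autoImplicit false
open scoped Matrix

namespace Cfsg.Agent.Lib.Helper59.OOG

open Cfsg.Agent.Lib.Helper55.OOG

universe u

theorem pkgLine_of (hAlg : PkgAlg.{u}) (hConj : PkgConj.{u}) (hEPerp : PkgEPerp.{u})
    (hRed : PkgRed.{u}) : PkgLine.{u} := by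
  intro m F _ h2 hm K hS hL u w σ hQu hBuw hσ
  by_cases hu0 : u = 0
  · subst hu0
    have h1 : σ = 1 := by
      apply ext_act
      intro v
      rw [hσ v, one_act, B_zero_right]
      simp
    rw [h1]
    exact K.one_mem
  · obtain ⟨g, hgK, c, hgc⟩ := hRed m F h2 K hS hL ⟨0, hm⟩ u hu0 hQu
    have h1 := hConj m F u w g σ hσ
    rw [hgc] at h1
    have h2' := ((hAlg m F (E ⟨0, hm⟩) (Q_E _)).2.2.2.1 c (mat g *ᵥ w) (g * σ * g⁻¹)).1 h1
    have h3 : B (E ⟨0, hm⟩ : Vec m F) (c • (mat g *ᵥ w)) = 0 := by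
      have h4 : B (mat g *ᵥ u) (mat g *ᵥ w) = 0 := by rw [B_act]; exact hBuw
      rw [hgc, B_smul_left] at h4
      rw [B_smul_right]; exact h4
    have h5 := hEPerp m F K hS hL ⟨0, hm⟩ _ _ h3 h2'
    have h6 : σ = g⁻¹ * (g * σ * g⁻¹) * g := by group
    rw [h6]
    exact K.mul_mem (K.mul_mem (K.inv_mem hgK) h5) hgK

end Cfsg.Agent.Lib.Helper59.OOG
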