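import Mathlib
import Cfsg.Agent.Lib.Helper55.OOG.Defs

/-!
# Project OOG (S2413): package [LONG]

The short root elements give the long root elements, by the commutator formula
(from [EXIST], [COMR]).
-/

set_option autoImplicit false
open scoped Matrix

namespace Cfsg.Agent.Lib.Helper59.OOG

open Cfsg.Agent.Lib.Helper55.OOG

universe u

theorem long_aux (hExist : PkgExist.{u}) (hComr : PkgComr.{u}) {m : ℕ} {F : Type u} [Field F]
    (h2 : (2 : F) ≠ 0) (K : Subgroup ↥(Iso m F)) (u u' : Vec m F) (hu : QF m F u = 0)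
    (hu' : QF m F u' = 0) (huu' : B u u' = 0) (huT : B u (T0 : Vec m F) = 0)
    (hu'T : B u' (T0 : Vec m F) = 0)
    (hKu : ∀ (c : F) (σ : ↥(Iso m F)), IsSieg u (c • T0) σ → σ ∈ K)
    (hKu' : ∀ (c : F) (σ : ↥(Iso m F)), IsSieg u' (c • T0) σ → σ ∈ K)
    (c : F) (σ : ↥(Iso m F)) (hσ : IsSieg u' (c • u) σ) : σ ∈ K := by
  have ha : B u ((-c / 2) • (T0 : Vec m F)) = 0 := by rw [B_smul_right, huT, mul_zero]
  have hb : B u ((1 : F) • (T0 : Vec m F)) = 0 := by rw [B_smul_right, huT, mul_zero]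
  have ha' : B u' ((-c / 2) • (T0 : Vec m F)) = 0 := by rw [B_smul_right, hu'T, mul_zero]
  have hb' : B u' ((1 : F) • (T0 : Vec m F)) = 0 := by rw [B_smul_right, hu'T, mul_zero]
  obtain ⟨σ₁, hσ₁⟩ := hExist m F u ((-c / 2) • T0) hu ha
  obtain ⟨τ₁, hτ₁⟩ := hExist m F u' ((1 : F) • T0) hu' hb'
  have h1 := hComr m F u u' _ _ hu hu' huu' ha hb ha' hb' σ₁ τ₁ hσ₁ hτ₁
  have h3 : -B ((-c / 2) • (T0 : Vec m F)) ((1 : F) • (T0 : Vec m F)) = c := by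
    rw [B_smul_left, B_smul_right, B_T0_T0]
    field_simp
  rw [h3] at h1
  have h4 : σ = σ₁ * τ₁ * σ₁⁻¹ * τ₁⁻¹ := isSieg_ext hσ h1
  rw [h4]
  have hσK := hKu _ σ₁ hσ₁
  have hτK := hKu' _ τ₁ hτ₁
  exact K.mul_mem (K.mul_mem (K.mul_mem hσK hτK) (K.inv_mem hσK)) (K.inv_mem hτK)

theorem pkgLong_of (hExist : PkgExist.{u}) (hComr : PkgComr.{u}) : PkgLong.{u} := by
  intro m F _ h2 K hS i j hij c σ
  refine ⟨?_, ?_, ?_, ?_⟩
  · exact long_aux hExist hComr h2 K (E i) (E j) (Q_E i) (Q_E j) (B_E_E i j) (B_E_T0 i)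
      (B_E_T0 j) (fun c σ => (hS i c σ).1) (fun c σ => (hS j c σ).1) c σ
  · exact long_aux hExist hComr h2 K (Fv i) (E j) (Q_Fv i) (Q_E j)
      (by rw [B_Fv_E, if_neg hij]) (B_Fv_T0 i) (B_E_T0 j) (fun c σ => (hS i c σ).2)
      (fun c σ => (hS j c σ).1) c σ
  · exact long_aux hExist hComr h2 K (E i) (Fv j) (Q_E i) (Q_Fv j)
      (by rw [B_E_Fv, if_neg hij]) (B_E_T0 i) (B_Fv_T0 j) (fun c σ => (hS i c σ).1)
      (fun c σ => (hS j c σ).2) c σ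
  · exact long_aux hExist hComr h2 K (Fv i) (Fv j) (Q_Fv i) (Q_Fv j) (B_Fv_Fv i j) (B_Fv_T0 i)
      (B_Fv_T0 j) (fun c σ => (hS i c σ).2) (fun c σ => (hS j c σ).2) c σ

end Cfsg.Agent.Lib.Helper59.OOG
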